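import Mathlib
import Cfsg.Agent.H999.PslGraphClasses

/-!
# Projective similarity groups of symmetric matrices of square discriminant (helper202)

* `projQuot_congr` : congruent matrices have isomorphic projective similarity groups;
* `projQuot_plus`  : a symmetric invertible matrix of dimension `2m` and determinant a square times `(-1)^m` over a
  finite field of odd order: the projective similarity group is `PGO F (quadFormPlus m F)`;
* `projQuot_minus`, `projQuot_symp`.
-/

set_option autoImplicit false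
set_option linter.unusedSectionVars false

namespace Cfsg.Agent.H202.SimCongr

open Cfsg Matrix Cfsg.Agent.H999.PslGraph Cfsg.Agent.H999.PslGraphOdd Cfsg.Agent.H999.PslGraphClasses
open scoped MatrixGroups

variable {F : Type*} [Field F] {n : ℕ}

theorem projQuot_congr {B B' : Matrix (Fin n) (Fin n) F} (P : GL (Fin n) F)
    (h : B' = (P : Matrix (Fin n) (Fin n) F)ᵀ * B * P) :
    Nonempty (projQuot (Geo.similarityGroup (bil B')) ≃* projQuot (Geo.similarityGroup (bil B))) := by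
  let T : (Fin n → F) ≃ₗ[F] (Fin n → F) := LinearEquiv.ofLinearMap
    (Matrix.mulVecLin (P : Matrix (Fin n) (Fin n) F)) (Matrix.mulVecLin ((P⁻¹ : GL (Fin n) F) : Matrix (Fin n) (Fin n) F))
    (by rw [← Matrix.mulVecLin_mul, ← Units.val_mul, mul_inv_cancel, Units.val_one, Matrix.mulVecLin_one])
    (by rw [← Matrix.mulVecLin_mul, ← Units.val_mul, inv_mul_cancel, Units.val_one, Matrix.mulVecLin_one])
  have hT : ∀ v, T v = (P : Matrix (Fin n) (Fin n) F) *ᵥ v := fun v => rfl
  exact similarity_transfer T one_ne_zero fun u v => by rw [hT, hT, bil_mulVec, ← h, one_mul]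

/-- Congruent to a reindexed matrix. -/
theorem projQuot_rx {κ : Type} [Fintype κ] [DecidableEq κ] (e : Fin n ≃ κ) (C : Matrix κ κ F) (hC : C.det ≠ 0)
    {B : Matrix (Fin n) (Fin n) F} (P : GL (Fin n) F)
    (h : (rx e C hC : Matrix (Fin n) (Fin n) F) = (P : Matrix (Fin n) (Fin n) F)ᵀ * B * P) :
    Nonempty (projQuot (Geo.similarityGroup (bil B)) ≃* projQuot (Geo.similarityGroup (bil C))) := by
  obtain ⟨e1⟩ := projQuot_congr P h
  obtain ⟨e2⟩ := similarity_transfer (LinearEquiv.funCongrLeft F F e.symm) one_ne_zero (bil_rx e C hC)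
  exact ⟨e1.symm.trans e2⟩

theorem projQuot_plus [Fintype F] (h2 : (2 : F) ≠ 0) {m : ℕ} (hn : 1 ≤ n) (e : Fin n ≃ Fin m ⊕ Fin m)
    (B : GL (Fin n) F) (hB : (B : Matrix (Fin n) (Fin n) F)ᵀ = B)
    (hd : IsSquare ((B : Matrix (Fin n) (Fin n) F).det * (-1) ^ m)) :
    Nonempty (projQuot (Geo.similarityGroup (bil (B : Matrix (Fin n) (Fin n) F))) ≃* PGO F (quadFormPlus m F)) := by
  obtain ⟨P, hP⟩ := exists_congr_of_disc h2 hn B (rx e (gramPlus m F) (det_gramPlus_ne_zero m)) hB
    (by rw [rx_transpose, gramPlus_transpose]; rfl) (by rw [det_rx, det_gramPlus]; exact hd)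
  have h := sim_eq_quad h2 (gramPlus_transpose m) (bil_gramPlus m (F := F))
  obtain ⟨e1⟩ := projQuot_rx e (gramPlus m F) (det_gramPlus_ne_zero m) P hP
  rw [h] at e1
  exact ⟨e1⟩

theorem projQuot_minus [Fintype F] (h2 : (2 : F) ≠ 0) {m : ℕ} (hn : 1 ≤ n) {a b : F}
    (hab : ∀ z₁ z₂ : F, z₁ ^ 2 + a * z₁ * z₂ + b * z₂ ^ 2 = 0 → z₁ = 0 ∧ z₂ = 0)
    (e : Fin n ≃ (Fin m ⊕ Fin m) ⊕ Fin 2)
    (B : GL (Fin n) F) (hB : (B : Matrix (Fin n) (Fin n) F)ᵀ = B)
    (hd : IsSquare ((B : Matrix (Fin n) (Fin n) F).det * ((-1) ^ m * (4 * b - a ^ 2)))) :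
    Nonempty (projQuot (Geo.similarityGroup (bil (B : Matrix (Fin n) (Fin n) F))) ≃*
      PGO F (quadFormMinus m F a b)) := by
  have hdet := det_gramMinus_ne_zero h2 m hab
  obtain ⟨P, hP⟩ := exists_congr_of_disc h2 hn B (rx e (gramMinus m F a b) hdet) hB
    (by rw [rx_transpose, gramMinus_transpose]; rfl) (by rw [det_rx, det_gramMinus]; exact hd)
  have h := sim_eq_quad h2 (gramMinus_transpose m a b) (bil_gramMinus m a b)
  obtain ⟨e1⟩ := projQuot_rx e (gramMinus m F a b) hdet P hP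
  rw [h] at e1
  exact ⟨e1⟩

theorem projQuot_symp {m : ℕ} (hnm : n = 2 * m) (B : GL (Fin n) F)
    (hB : ∀ v, bil (B : Matrix (Fin n) (Fin n) F) v v = 0) :
    Nonempty (projQuot (Geo.similarityGroup (bil (B : Matrix (Fin n) (Fin n) F))) ≃* PGSp m F) := by
  obtain ⟨e, he⟩ := exists_symp hnm B hB
  obtain ⟨e2⟩ := similarity_transfer e (f := bil (B : Matrix (Fin n) (Fin n) F)) (f' := sympForm m F)
    one_ne_zero (fun u v => by rw [he, one_mul])
  exact ⟨e2.symm⟩

end Cfsg.Agent.H202.SimCongr
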